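import Mathlib

set_option autoImplicit false
open Matrix

namespace CfsgLib.EvenLattice

variable {n : ℕ} (B : Matrix (Fin n) (Fin n) ℤ)

/-- The norm of a vector for the Gram matrix `B`. -/
def qn (x : Fin n → ℤ) : ℤ := x ⬝ᵥ (B *ᵥ x)

/-- The bilinear form of `B`. -/
def bf (x y : Fin n → ℤ) : ℤ := x ⬝ᵥ (B *ᵥ y)

lemma qn_eq_bf (x : Fin n → ℤ) : qn B x = bf B x x := rfl

lemma bf_comm (hB : B.IsSymm) (x y : Fin n → ℤ) : bf B x y = bf B y x := by
  unfold bf
  rw [Matrix.dotProduct_mulVec, ← Matrix.mulVec_transpose, hB.eq, dotProduct_comm]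

lemma qn_add (hB : B.IsSymm) (x y : Fin n → ℤ) :
    qn B (x + y) = qn B x + qn B y + 2 * bf B x y := by
  have h := bf_comm B hB y x
  simp only [qn, bf, Matrix.mulVec_add, add_dotProduct, dotProduct_add] at *
  linarith

lemma qn_sub (hB : B.IsSymm) (x y : Fin n → ℤ) :
    qn B (x - y) = qn B x + qn B y - 2 * bf B x y := by
  have h := bf_comm B hB y x
  simp only [qn, bf, Matrix.mulVec_sub, sub_dotProduct, dotProduct_sub] at *
  linarith

lemma qn_two_smul (z : Fin n → ℤ) : qn B ((2 : ℤ) • z) = 4 * qn B z := by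
  simp only [qn, Matrix.mulVec_smul, smul_dotProduct, dotProduct_smul, smul_eq_mul]
  ring

@[simp] lemma qn_zero : qn B 0 = 0 := by simp [qn]

lemma qn_neg (x : Fin n → ℤ) : qn B (-x) = qn B x := by
  simp [qn, Matrix.mulVec_neg]

/-- Positive definite, even, and no vector of norm 2. -/
structure Rootless (B : Matrix (Fin n) (Fin n) ℤ) : Prop where
  symm : B.IsSymm
  pos : ∀ x : Fin n → ℤ, x ≠ 0 → 0 < qn B x
  even : ∀ x : Fin n → ℤ, (2 : ℤ) ∣ qn B x
  ne_two : ∀ x : Fin n → ℤ, qn B x ≠ 2

variable {B}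

lemma Rootless.four_le (h : Rootless B) {x : Fin n → ℤ} (hx : x ≠ 0) : 4 ≤ qn B x := by
  have h1 := h.pos x hx
  have h2 := h.ne_two x
  obtain ⟨k, hk⟩ := h.even x
  omega

lemma Rootless.sixteen_le (h : Rootless B) {x : Fin n → ℤ} (hx : x ≠ 0)
    (hd : ∀ i, (2 : ℤ) ∣ x i) : 16 ≤ qn B x := by
  choose z hz using hd
  have hx' : x = (2 : ℤ) • z := funext fun i => by simp [hz i]
  have hz0 : z ≠ 0 := by
    rintro rfl
    exact hx (by simp [hx'])
  have := h.four_le hz0
  rw [hx', qn_two_smul]
  omega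

/-- Vectors congruent modulo 2 are equal, opposite, or have norms of sum at least 16. -/
lemma Rootless.cong_cases (h : Rootless B) (x y : Fin n → ℤ)
    (hc : ∀ i, (2 : ℤ) ∣ (x - y) i) :
    y = x ∨ y = -x ∨
      (2 * |bf B x y| ≤ qn B x + qn B y - 16) := by
  by_cases h1 : y = x
  · exact Or.inl h1
  by_cases h2 : y = -x
  · exact Or.inr (Or.inl h2)
  refine Or.inr (Or.inr ?_)
  have hs : x - y ≠ 0 := sub_ne_zero.mpr (Ne.symm h1)
  have ha : x + y ≠ 0 := fun e => h2 (eq_neg_of_add_eq_zero_right e)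
  have hs' := h.sixteen_le hs hc
  have ha' := h.sixteen_le ha fun i => by
    have := hc i
    simp only [Pi.sub_apply] at this
    simp only [Pi.add_apply]
    omega
  rw [qn_sub B h.symm] at hs'
  rw [qn_add B h.symm] at ha'
  rcases abs_cases (bf B x y) with ⟨he, -⟩ | ⟨he, -⟩ <;> omega

lemma Rootless.cong_norm_eight (h : Rootless B) (x y : Fin n → ℤ) (hx : qn B x = 8)
    (hy : qn B y = 8) (hc : ∀ i, (2 : ℤ) ∣ (x - y) i) :
    y = x ∨ y = -x ∨ bf B x y = 0 := by
  rcases h.cong_cases x y hc with h1 | h1 | h1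
  · exact Or.inl h1
  · exact Or.inr (Or.inl h1)
  · refine Or.inr (Or.inr ?_)
    have := abs_nonneg (bf B x y)
    exact abs_eq_zero.mp (by omega)

/-- Pairwise orthogonal non-null vectors are at most `n` in number. -/
lemma orth_card_le (T : Finset (Fin n → ℤ)) (hpos : ∀ t ∈ T, qn B t ≠ 0)
    (horth : ∀ s ∈ T, ∀ t ∈ T, s ≠ t → bf B s t = 0) : T.card ≤ n := by
  have li : LinearIndependent ℤ (fun t : T => (t : Fin n → ℤ)) := by
    rw [Fintype.linearIndependent_iff]
    intro g hg t
    have h0 : bf B (t : Fin n → ℤ) (∑ s : T, g s • (s : Fin n → ℤ)) = 0 := by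
      rw [hg]; simp [bf]
    have h1 : bf B (t : Fin n → ℤ) (∑ s : T, g s • (s : Fin n → ℤ)) =
        ∑ s : T, g s * bf B (t : Fin n → ℤ) (s : Fin n → ℤ) := by
      simp only [bf, Matrix.mulVec_sum, Matrix.mulVec_smul, dotProduct_sum, dotProduct_smul,
        smul_eq_mul]
    rw [h1, Finset.sum_eq_single t] at h0
    · exact (mul_eq_zero.mp h0).resolve_right (hpos t t.2)
    · intro s _ hs
      rw [horth t t.2 s s.2 (fun e => hs (Subtype.ext e).symm), mul_zero]
    · intro h; exact absurd (Finset.mem_univ t) h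
  simpa using li.fintype_card_le_finrank

/-- A set of norm-8 vectors, pairwise congruent modulo 2, has at most `2 * n` members. -/
lemma Rootless.class_card_le (h : Rootless B) (F : Finset (Fin n → ℤ))
    (h8 : ∀ v ∈ F, qn B v = 8) (hc : ∀ v ∈ F, ∀ w ∈ F, ∀ i, (2 : ℤ) ∣ (v - w) i) :
    F.card ≤ 2 * n := by
  classical
  obtain ⟨T, hT, hmax⟩ := Finset.exists_max_image
    (F.powerset.filter fun T => ∀ s ∈ T, ∀ t ∈ T, s ≠ t → bf B s t = 0) Finset.card
    ⟨∅, by simp⟩
  simp only [Finset.mem_filter, Finset.mem_powerset] at hT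
  have hsub : F ⊆ T ∪ T.image (fun t => -t) := by
    intro v hv
    by_contra hn
    simp only [Finset.mem_union, Finset.mem_image, not_or, not_exists, not_and] at hn
    have horth : ∀ t ∈ T, bf B v t = 0 := by
      intro t ht
      rcases h.cong_norm_eight v t (h8 v hv) (h8 t (hT.1 ht)) (hc v hv t (hT.1 ht)) with e | e | e
      · exact absurd (e ▸ ht) hn.1
      · exact absurd (by rw [e, neg_neg]) (hn.2 t ht)
      · exact e
    have hmem : insert v T ∈ F.powerset.filter
        (fun T => ∀ s ∈ T, ∀ t ∈ T, s ≠ t → bf B s t = 0) := by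
      simp only [Finset.mem_filter, Finset.mem_powerset]
      refine ⟨Finset.insert_subset hv hT.1, fun s hs t ht hne => ?_⟩
      rcases Finset.mem_insert.mp hs with hs | hs <;> rcases Finset.mem_insert.mp ht with ht | ht
      · exact absurd (hs.trans ht.symm) hne
      · rw [hs]; exact horth t ht
      · rw [ht, bf_comm B h.symm]; exact horth s hs
      · exact hT.2 s hs t ht hne
    have := hmax _ hmem
    rw [Finset.card_insert_of_notMem hn.1] at this
    omega
  have h1 : T.card ≤ n := orth_card_le T (fun t ht => by rw [h8 t (hT.1 ht)]; norm_num) hT.2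
  calc F.card ≤ (T ∪ T.image (fun t => -t)).card := Finset.card_le_card hsub
    _ ≤ T.card + (T.image (fun t => -t)).card := Finset.card_union_le _ _
    _ ≤ T.card + T.card := Nat.add_le_add_left Finset.card_image_le _
    _ ≤ 2 * n := by omega

/-- Reduction modulo 2. -/
def red (x : Fin n → ℤ) : Fin n → ZMod 2 := fun i => (x i : ZMod 2)

lemma red_eq_iff (x y : Fin n → ℤ) : red x = red y ↔ ∀ i, (2 : ℤ) ∣ (x - y) i := by
  simp only [funext_iff, red, Pi.sub_apply]
  refine forall_congr' fun i => ?_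
  rw [ZMod.intCast_eq_intCast_iff_dvd_sub]
  exact ⟨fun h => by push_cast at h; omega, fun h => by push_cast; omega⟩

/-- In a fibre of reduction modulo 2, vectors of equal norm below 8 come in pairs only. -/
lemma Rootless.fibre_small (h : Rootless B) (F : Finset (Fin n → ℤ)) (m : ℤ) (hm : m < 8)
    (hF : ∀ v ∈ F, qn B v = m) :
    F.card ≤ 2 * (F.image red).card := by
  classical
  refine Finset.card_le_mul_card_image F 2 fun c hc => ?_
  obtain ⟨v, hv, rfl⟩ := Finset.mem_image.mp hc
  refine (Finset.card_le_card (t := {v, -v}) ?_).trans Finset.card_le_two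
  intro w hw
  rw [Finset.mem_filter] at hw
  rw [Finset.mem_insert, Finset.mem_singleton]
  rcases h.cong_cases v w ((red_eq_iff v w).mp hw.2.symm) with e | e | e
  · exact Or.inl e
  · exact Or.inr e
  · rw [hF v hv, hF w hw.1] at e
    have := abs_nonneg (bf B v w)
    omega

/-- Images of norm classes below or at 8 are disjoint. -/
lemma Rootless.images_disjoint (h : Rootless B) (F F' : Finset (Fin n → ℤ)) (a b : ℤ)
    (hab : a + b < 16) (hne : a ≠ b) (hF : ∀ v ∈ F, qn B v = a) (hF' : ∀ v ∈ F', qn B v = b) :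
    Disjoint (F.image red) (F'.image red) := by
  classical
  rw [Finset.disjoint_left]
  intro c hc hc'
  obtain ⟨v, hv, rfl⟩ := Finset.mem_image.mp hc
  obtain ⟨w, hw, he⟩ := Finset.mem_image.mp hc'
  rcases h.cong_cases v w ((red_eq_iff v w).mp he.symm) with e | e | e
  · exact hne (by rw [← hF v hv, ← hF' w hw, e])
  · exact hne (by rw [← hF v hv, ← hF' w hw, e, qn_neg])
  · rw [hF v hv, hF' w hw] at e
    have := abs_nonneg (bf B v w)
    omega

/-- The counting argument: the vector counts force norm-8 classes of size exactly `k`. -/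
lemma Rootless.class_card_eq (h : Rootless B) (F4 F6 F8 : Finset (Fin n → ℤ))
    (e4 : ∀ v ∈ F4, qn B v = 4) (e6 : ∀ v ∈ F6, qn B v = 6) (e8 : ∀ v ∈ F8, qn B v = 8)
    (hcount : 2 ^ n * (2 * n) + 0 ≤
      (2 * n) + n * F4.card + n * F6.card + F8.card)
    (x : Fin n → ℤ) (hx : x ∈ F8) :
    (F8.filter fun y => red y = red x).card = 2 * n := by
  classical
  have hle : ∀ c ∈ F8.image red, (F8.filter fun y => red y = c).card ≤ 2 * n := by
    intro c _
    refine h.class_card_le _ (fun v hv => e8 v (Finset.mem_filter.mp hv).1) ?_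
    intro v hv w hw
    exact (red_eq_iff v w).mp ((Finset.mem_filter.mp hv).2.trans (Finset.mem_filter.mp hw).2.symm)
  refine le_antisymm (hle _ (Finset.mem_image_of_mem _ hx)) ?_
  by_contra hlt
  have hsum : F8.card < ∑ c ∈ F8.image red, 2 * n := by
    rw [Finset.card_eq_sum_card_image red F8]
    exact Finset.sum_lt_sum hle ⟨_, Finset.mem_image_of_mem _ hx, by omega⟩
  rw [Finset.sum_const, smul_eq_mul] at hsum
  have d0 : ∀ v ∈ ({0} : Finset (Fin n → ℤ)), qn B v = 0 := by simp
  have d01 := h.images_disjoint {0} F4 0 4 (by norm_num) (by norm_num) d0 e4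
  have d02 := h.images_disjoint {0} F6 0 6 (by norm_num) (by norm_num) d0 e6
  have d03 := h.images_disjoint {0} F8 0 8 (by norm_num) (by norm_num) d0 e8
  have d12 := h.images_disjoint F4 F6 4 6 (by norm_num) (by norm_num) e4 e6
  have d13 := h.images_disjoint F4 F8 4 8 (by norm_num) (by norm_num) e4 e8
  have d23 := h.images_disjoint F6 F8 6 8 (by norm_num) (by norm_num) e6 e8
  have f4 := h.fibre_small F4 4 (by norm_num) e4
  have f6 := h.fibre_small F6 6 (by norm_num) e6
  have hu : (({0} : Finset (Fin n → ℤ)).image red ∪ F4.image red ∪ F6.image red ∪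
      F8.image red).card ≤ 2 ^ n := by
    have := Finset.card_le_univ (({0} : Finset (Fin n → ℤ)).image red ∪ F4.image red ∪
      F6.image red ∪ F8.image red)
    simpa using this
  rw [Finset.card_union_of_disjoint (by simp only [Finset.disjoint_union_left]; exact ⟨⟨d03, d13⟩, d23⟩),
    Finset.card_union_of_disjoint (by simp only [Finset.disjoint_union_left]; exact ⟨d02, d12⟩),
    Finset.card_union_of_disjoint d01, Finset.image_singleton, Finset.card_singleton] at hu
  have hmul := Nat.mul_le_mul_right (2 * n) hu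
  have g4 := Nat.mul_le_mul_left n f4
  have g6 := Nat.mul_le_mul_left n f6
  nlinarith

end CfsgLib.EvenLattice
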