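import Mathlib
import Cfsg.Agent.EvenLattice.Norm8

/-!
# The theta series of an even unimodular lattice

`theta B τ = ∑ x, exp (π i τ qn B x)`.  For a positive definite integral Gram matrix the lattice
contains an orthogonal frame `e`, and the transformation law under `τ ↦ -1/τ` follows from the
one-variable functional equation of `jacobiTheta₂` and character orthogonality on the finite
quotient by the frame lattice.  In rank 24 the theta series is then a level one modular form of
weight 12, which determines the representation numbers from the first two of them.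
-/

set_option autoImplicit false

open Matrix Complex
open UpperHalfPlane hiding I
open scoped Real MatrixGroups ModularForm

namespace CfsgLib.EvenLattice

variable {n : ℕ}

/-- An orthogonal frame of integer vectors. -/
structure IntFrame (B : Matrix (Fin n) (Fin n) ℤ) where
  e : Fin n → Fin n → ℤ
  orth : ∀ i j, i ≠ j → bf B (e i) (e j) = 0
  pos : ∀ i, 0 < qn B (e i)
  inj : ∀ x : Fin n → ℤ, (∀ i, bf B x (e i) = 0) → x = 0

section Frame

variable {B : Matrix (Fin n) (Fin n) ℤ}

lemma bf_add_left (x x' y : Fin n → ℤ) : bf B (x + x') y = bf B x y + bf B x' y := by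
  simp [bf, add_dotProduct]

lemma bf_smul_left (c : ℤ) (x y : Fin n → ℤ) : bf B (c • x) y = c * bf B x y := by
  unfold bf
  rw [smul_dotProduct, smul_eq_mul]

lemma bf_sum_left {ι : Type*} (s : Finset ι) (f : ι → Fin n → ℤ) (y : Fin n → ℤ) :
    bf B (∑ i ∈ s, f i) y = ∑ i ∈ s, bf B (f i) y := by
  simp [bf, sum_dotProduct]

lemma exists_orthogonal_family (hB : B.IsSymm) (hpos : ∀ x : Fin n → ℤ, x ≠ 0 → 0 < qn B x) :
    ∀ k ≤ n, ∃ e : Fin k → Fin n → ℤ,
      (∀ i j, i ≠ j → bf B (e i) (e j) = 0) ∧ ∀ i, 0 < qn B (e i) := by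
  intro k hk
  induction k with
  | zero => exact ⟨fun i => i.elim0, fun i => i.elim0, fun i => i.elim0⟩
  | succ k ih =>
    obtain ⟨e, he1, he2⟩ := ih (by omega)
    let C : Matrix (Fin n) (Fin n) ℤ :=
      Matrix.of fun i j => if h : (i : ℕ) < k then (B *ᵥ e ⟨i, h⟩) j else 0
    have hdet : C.det = 0 :=
      Matrix.det_eq_zero_of_row_eq_zero ⟨k, by omega⟩ fun j => by simp [C]
    obtain ⟨v, hv, hCv⟩ := Matrix.exists_mulVec_eq_zero_iff.2 hdet
    have horth : ∀ i : Fin k, bf B v (e i) = 0 := by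
      intro i
      have := congrFun hCv ⟨i, by omega⟩
      simp [C, Matrix.mulVec, dotProduct, i.isLt] at this
      unfold bf
      rw [dotProduct_comm]
      simpa [dotProduct, Matrix.mulVec] using this
    refine ⟨Fin.snoc e v, ?_, ?_⟩
    · intro i j hij
      induction i using Fin.lastCases with
      | last =>
        induction j using Fin.lastCases with
        | last => exact absurd rfl hij
        | cast j => simpa using horth j
      | cast i =>
        induction j using Fin.lastCases with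
        | last => simpa [bf_comm B hB] using horth i
        | cast j =>
          simp only [Fin.snoc_castSucc]
          exact he1 i j fun h => hij (by rw [h])
    · intro i
      induction i using Fin.lastCases with
      | last => simpa using hpos v hv
      | cast i => simpa using he2 i

lemma exists_intFrame (hB : B.IsSymm) (hpos : ∀ x : Fin n → ℤ, x ≠ 0 → 0 < qn B x) :
    Nonempty (IntFrame B) := by
  obtain ⟨e, he1, he2⟩ := exists_orthogonal_family hB hpos n le_rfl
  refine ⟨⟨e, he1, he2, fun x hx => ?_⟩⟩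
  let E : Matrix (Fin n) (Fin n) ℤ := Matrix.of e
  have hd : E * B * Eᵀ = Matrix.diagonal fun i => qn B (e i) := by
    ext i j
    have hb : (E * B * Eᵀ) i j = bf B (e i) (e j) := by
      simp [E, Matrix.mul_apply, bf, dotProduct, Matrix.mulVec, Finset.sum_mul, Finset.mul_sum,
        mul_assoc]
      rw [Finset.sum_comm]
    rw [hb]
    rcases eq_or_ne i j with rfl | hij
    · rw [Matrix.diagonal_apply_eq, qn_eq_bf]
    · rw [Matrix.diagonal_apply_ne _ hij, he1 i j hij]
  have hne : (E * B).det ≠ 0 := by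
    intro h0
    have := congrArg Matrix.det hd
    rw [Matrix.det_mul, h0, zero_mul, Matrix.det_diagonal] at this
    exact (Finset.prod_ne_zero_iff.2 fun i _ => (he2 i).ne') this.symm
  by_contra hx0
  refine hne (Matrix.exists_mulVec_eq_zero_iff.1 ⟨x, hx0, funext fun i => ?_⟩)
  rw [← Matrix.mulVec_mulVec]
  show e i ⬝ᵥ (B *ᵥ x) = 0
  exact (bf_comm B hB (e i) x).trans (hx i)

namespace IntFrame

variable (F : IntFrame B)

/-- The norms of the frame vectors. -/
def d (i : Fin n) : ℤ := qn B (F.e i)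

/-- Coordinates against the frame. -/
def coord (x : Fin n → ℤ) (i : Fin n) : ℤ := bf B x (F.e i)

lemma d_pos (i : Fin n) : 0 < F.d i := F.pos i

lemma d_ne (i : Fin n) : F.d i ≠ 0 := (F.pos i).ne'

lemma coord_injective : Function.Injective F.coord := by
  intro x y h
  have : x - y = 0 := F.inj _ fun i => by
    have hi := congrFun h i
    simp only [coord, bf, sub_dotProduct] at hi ⊢
    omega
  exact sub_eq_zero.1 this

lemma coord_add (x y : Fin n → ℤ) (i : Fin n) :
    F.coord (x + y) i = F.coord x i + F.coord y i := bf_add_left _ _ _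

lemma coord_comb (m : Fin n → ℤ) (i : Fin n) :
    F.coord (∑ j, m j • F.e j) i = m i * F.d i := by
  unfold coord
  rw [bf_sum_left, Finset.sum_eq_single i]
  · rw [bf_smul_left, d, qn_eq_bf]
  · intro j _ hj
    rw [bf_smul_left, F.orth j i hj, mul_zero]
  · simp

/-- The cofactor `∏ d / d i`. -/
def cof (i : Fin n) : ℤ := ∏ j ∈ Finset.univ.erase i, F.d j

lemma cof_mul (i : Fin n) : F.cof i * F.d i = ∏ j, F.d j :=
  Finset.prod_erase_mul _ _ (Finset.mem_univ i)

lemma prod_smul_eq (x : Fin n → ℤ) :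
    (∏ j, F.d j) • x = ∑ j, (F.cof j * F.coord x j) • F.e j := by
  apply F.coord_injective
  funext i
  rw [coord_comb, coord, bf_smul_left, mul_right_comm, cof_mul]
  rfl

lemma bf_prod (x y : Fin n → ℤ) :
    (∏ j, F.d j) * bf B x y = ∑ j, F.cof j * F.coord x j * bf B (F.e j) y := by
  rw [← bf_smul_left, prod_smul_eq, bf_sum_left]
  simp only [bf_smul_left]

lemma bf_eq (hB : B.IsSymm) (x y : Fin n → ℤ) :
    (bf B x y : ℂ) = ∑ j, (F.coord x j : ℂ) * F.coord y j / F.d j := by
  have h := congrArg (fun z : ℤ => (z : ℂ)) (F.bf_prod x y)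
  simp only [bf_comm B hB (F.e _) y, Int.cast_mul, Int.cast_sum] at h
  have hD : ((∏ j, F.d j : ℤ) : ℂ) ≠ 0 :=
    Int.cast_ne_zero.2 (Finset.prod_ne_zero_iff.2 fun j _ => F.d_ne j)
  refine mul_left_cancel₀ hD (h.trans ?_)
  rw [Finset.mul_sum]
  refine Finset.sum_congr rfl fun j _ => ?_
  have hj : (F.d j : ℂ) ≠ 0 := Int.cast_ne_zero.2 (F.d_ne j)
  rw [← F.cof_mul j, Int.cast_mul]
  field_simp
  rfl

lemma qn_eq (hB : B.IsSymm) (x : Fin n → ℤ) :
    (qn B x : ℂ) = ∑ j, (F.coord x j : ℂ) ^ 2 / F.d j := by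
  rw [qn_eq_bf, F.bf_eq hB]
  simp [sq]

/-- Reduction of the coordinates modulo the norms. -/
noncomputable def reduce : (Fin n → ℤ) →+ (∀ i, ZMod (F.d i).natAbs) where
  toFun x i := (F.coord x i : ZMod (F.d i).natAbs)
  map_zero' := by
    funext i
    simp [coord, bf]
  map_add' x y := by
    funext i
    simp [F.coord_add]

instance (i : Fin n) : NeZero (F.d i).natAbs := ⟨Int.natAbs_ne_zero.2 (F.d_ne i)⟩

/-- The finite quotient of the lattice by the frame lattice. -/
abbrev Quot' := ↥(F.reduce).range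

noncomputable instance : Fintype F.Quot' := Fintype.ofFinite _

/-- A representative of a class. -/
noncomputable def rep (z : F.Quot') : Fin n → ℤ := z.2.choose

lemma reduce_rep (z : F.Quot') : F.reduce (F.rep z) = z := z.2.choose_spec

lemma reduce_comb (m : Fin n → ℤ) : F.reduce (∑ j, m j • F.e j) = 0 := by
  funext i
  show ((F.coord _ i : ℤ) : ZMod (F.d i).natAbs) = 0
  rw [coord_comb, ZMod.intCast_zmod_eq_zero_iff_dvd]
  exact Int.natAbs_dvd.2 (dvd_mul_left _ _)

/-- Every lattice vector is uniquely a representative minus a frame combination. -/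
noncomputable def decomp : F.Quot' × (Fin n → ℤ) ≃ (Fin n → ℤ) :=
  Equiv.ofBijective (fun p => F.rep p.1 + ∑ j, (-p.2 j) • F.e j) <| by
    constructor
    · rintro ⟨z, m⟩ ⟨z', m'⟩ h
      have hz : z = z' := by
        have := congrArg F.reduce h
        simp only [map_add, reduce_comb, add_zero, reduce_rep] at this
        exact Subtype.ext this
      subst hz
      refine Prod.ext rfl (funext fun i => ?_)
      have := congrArg (fun x => F.coord x i) (add_left_cancel h)
      simp only [coord_comb] at this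
      have := mul_right_cancel₀ (F.d_ne i) this
      simpa using this
    · intro x
      let z : F.Quot' := ⟨F.reduce x, x, rfl⟩
      have hd : ∀ i, F.d i ∣ F.coord x i - F.coord (F.rep z) i := by
        intro i
        have h1 := congrFun (F.reduce_rep z) i
        change ((F.coord (F.rep z) i : ℤ) : ZMod (F.d i).natAbs) = (F.coord x i : ℤ) at h1
        rw [ZMod.intCast_eq_intCast_iff_dvd_sub] at h1
        exact Int.natAbs_dvd.1 h1
      choose m hm using hd
      refine ⟨⟨z, fun i => -m i⟩, F.coord_injective (funext fun i => ?_)⟩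
      simp only [neg_neg, coord_add, coord_comb]
      linarith [hm i]

lemma coord_decomp (z : F.Quot') (m : Fin n → ℤ) (i : Fin n) :
    F.coord (F.decomp (z, m)) i = F.coord (F.rep z) i - m i * F.d i := by
  show F.coord (F.rep z + ∑ j, (-m j) • F.e j) i = _
  rw [coord_add, coord_comb]
  ring

end IntFrame

end Frame

section PiSum

lemma hasSum_pi_prod : ∀ {k : ℕ} (f : Fin k → ℤ → ℂ), (∀ i, Summable fun b => ‖f i b‖) →
    (Summable fun c : Fin k → ℤ => ‖∏ i, f i (c i)‖) ∧
      ∑' c : Fin k → ℤ, ∏ i, f i (c i) = ∏ i, ∑' b, f i b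
  | 0, f, _ => ⟨summable_of_hasFiniteSupport (Set.toFinite _), by simp [tsum_fintype]⟩
  | k + 1, f, hf => by
    obtain ⟨h1, h2⟩ := hasSum_pi_prod (fun i => f i.succ) fun i => hf i.succ
    let g : (Fin k → ℤ) → ℂ := fun c => ∏ i, f i.succ (c i)
    have hsplit : ∀ p : ℤ × (Fin k → ℤ),
        ∏ i, f i ((Fin.consEquiv fun _ => ℤ) p i) = f 0 p.1 * g p.2 := by
      intro p
      simp [Fin.prod_univ_succ, Fin.consEquiv, g]
    constructor
    · rw [← (Fin.consEquiv fun _ => ℤ).summable_iff]
      simpa only [Function.comp_def, hsplit] using (hf 0).mul_norm h1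
    · rw [← (Fin.consEquiv fun _ => ℤ).tsum_eq, tsum_congr hsplit,
        ← tsum_mul_tsum_of_summable_norm (hf 0) h1, h2, Fin.prod_univ_succ]

end PiSum

section Theta

variable (B : Matrix (Fin n) (Fin n) ℤ)

/-- The term of the theta series. -/
noncomputable def thetaTerm (x : Fin n → ℤ) (τ : ℂ) : ℂ :=
  Complex.exp (π * I * τ * (qn B x : ℂ))

/-- The theta series of a Gram matrix. -/
noncomputable def theta (τ : ℂ) : ℂ := ∑' x, thetaTerm B x τ

variable {B}

lemma norm_thetaTerm (x : Fin n → ℤ) (τ : ℂ) :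
    ‖thetaTerm B x τ‖ = Real.exp (-π * τ.im * qn B x) := by
  rw [thetaTerm, Complex.norm_exp]
  congr 1
  simp [Complex.mul_re, Complex.mul_im]

lemma summable_norm_gauss (a : ℂ) {τ : ℂ} (hτ : 0 < τ.im) :
    Summable fun b : ℤ => ‖jacobiTheta₂_term b a τ‖ :=
  summable_norm_iff.2 ((summable_jacobiTheta₂_term_iff a τ).2 hτ)

/-- The frame term `∏ exp (2 π i b a + π i τ b²/d)`. -/
noncomputable def frameTerm (F : IntFrame B) (τ : ℂ) (a : Fin n → ℂ) (b : Fin n → ℤ) : ℂ :=
  ∏ i, jacobiTheta₂_term (b i) (a i) (τ / F.d i)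

lemma im_div_d (F : IntFrame B) {τ : ℂ} (hτ : 0 < τ.im) (i : Fin n) : 0 < (τ / F.d i).im := by
  have hd : (0 : ℝ) < (F.d i : ℝ) := Int.cast_pos.2 (F.d_pos i)
  rw [show (τ / (F.d i : ℂ)) = τ / ((F.d i : ℝ) : ℂ) by norm_cast, Complex.div_ofReal_im]
  positivity

lemma frameTerm_sum (F : IntFrame B) {τ : ℂ} (hτ : 0 < τ.im) (a : Fin n → ℂ) :
    (Summable fun b => ‖frameTerm F τ a b‖) ∧
      ∑' b, frameTerm F τ a b = ∏ i, jacobiTheta₂ (a i) (τ / F.d i) :=
  hasSum_pi_prod (fun i (b : ℤ) => jacobiTheta₂_term b (a i) (τ / F.d i))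
    fun i => summable_norm_gauss (a i) (im_div_d F hτ i)

lemma frameTerm_coord (hB : B.IsSymm) (F : IntFrame B) (τ : ℂ) (x : Fin n → ℤ) :
    frameTerm F τ 0 (F.coord x) = thetaTerm B x τ := by
  simp only [frameTerm, jacobiTheta₂_term, thetaTerm, ← Complex.exp_sum, F.qn_eq hB x,
    Finset.mul_sum]
  congr 1
  refine Finset.sum_congr rfl fun i _ => ?_
  simp
  ring

lemma summable_thetaTerm (hB : B.IsSymm) (hpos : ∀ x : Fin n → ℤ, x ≠ 0 → 0 < qn B x)
    {τ : ℂ} (hτ : 0 < τ.im) : Summable fun x => ‖thetaTerm B x τ‖ := by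
  obtain ⟨F⟩ := exists_intFrame hB hpos
  exact ((frameTerm_sum F hτ 0).1.comp_injective F.coord_injective).congr fun x =>
    by simp only [Function.comp_apply, frameTerm_coord hB F]

/-- The character attached to a coordinate vector and a lattice vector. -/
noncomputable def pairing (F : IntFrame B) (b : Fin n → ℤ) (y : Fin n → ℤ) : ℂ :=
  Complex.exp (2 * π * I * ∑ i, (b i : ℂ) * (F.coord y i : ℂ) / F.d i)

lemma pairing_add (F : IntFrame B) (b y y' : Fin n → ℤ) :
    pairing F b (y + y') = pairing F b y * pairing F b y' := by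
  rw [pairing, pairing, pairing, ← Complex.exp_add, ← mul_add, ← Finset.sum_add_distrib]
  congr 2
  refine Finset.sum_congr rfl fun i _ => ?_
  rw [F.coord_add]
  push_cast
  ring

lemma pairing_congr (F : IntFrame B) (b : Fin n → ℤ) {y y' : Fin n → ℤ}
    (h : F.reduce y = F.reduce y') : pairing F b y = pairing F b y' := by
  have hd : ∀ i, F.d i ∣ F.coord y' i - F.coord y i := by
    intro i
    have h1 := congrFun h i
    change ((F.coord y i : ℤ) : ZMod (F.d i).natAbs) = (F.coord y' i : ℤ) at h1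
    rw [ZMod.intCast_eq_intCast_iff_dvd_sub] at h1
    exact Int.natAbs_dvd.1 h1
  choose m hm using hd
  rw [pairing, pairing, Complex.exp_eq_exp_iff_exists_int]
  refine ⟨-∑ i, b i * m i, ?_⟩
  rw [Int.cast_neg, Int.cast_sum, neg_mul, Finset.sum_mul, ← sub_eq_add_neg, Finset.mul_sum,
    Finset.mul_sum, ← Finset.sum_sub_distrib]
  refine Finset.sum_congr rfl fun i _ => ?_
  have hi : (F.coord y' i : ℂ) = F.coord y i + F.d i * m i := by
    have := hm i
    rw [sub_eq_iff_eq_add] at this
    rw [this]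
    push_cast
    ring
  have hne : (F.d i : ℂ) ≠ 0 := Int.cast_ne_zero.2 (F.d_ne i)
  rw [hi]
  push_cast
  field_simp
  ring

lemma exists_pairing_ne_one (hB : B.IsSymm) (hdet : B.det = 1) (F : IntFrame B)
    (b : Fin n → ℤ) (hb : ∀ x, F.coord x ≠ b) : ∃ y, pairing F b y ≠ 1 := by
  by_contra! hall
  have hint : ∀ y, ∃ w : ℤ, ∑ i, (b i : ℂ) * (F.coord y i : ℂ) / F.d i = (w : ℂ) := by
    intro y
    obtain ⟨w, hw⟩ := Complex.exp_eq_one_iff.1 (hall y)
    refine ⟨w, ?_⟩
    have h2 : (2 * π * I : ℂ) ≠ 0 := by simp [Real.pi_ne_zero]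
    exact mul_left_cancel₀ h2 (hw.trans (mul_comm _ _))
  choose w hw using hint
  have hBu : IsUnit B.det := by rw [hdet]; exact isUnit_one
  let x : Fin n → ℤ := B⁻¹ *ᵥ fun j => w (Pi.single j 1)
  have hBx : B *ᵥ x = fun j => w (Pi.single j 1) := by
    rw [Matrix.mulVec_mulVec, Matrix.mul_nonsing_inv _ hBu, Matrix.one_mulVec]
  have hcoord : ∀ y i, (F.coord y i : ℂ) = ∑ j, (y j : ℂ) * F.coord (Pi.single j 1) i := by
    intro y i
    have h1 : F.coord y i = ∑ j, y j * F.coord (Pi.single j 1) i := by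
      simp [IntFrame.coord, bf, dotProduct, Pi.single_apply]
    rw [h1]
    push_cast
    rfl
  have hlin : ∀ y, (bf B y x : ℂ) = ∑ i, (b i : ℂ) * (F.coord y i : ℂ) / F.d i := by
    intro y
    simp only [bf, hBx, dotProduct]
    push_cast
    simp only [← hw, hcoord y, Finset.mul_sum, Finset.sum_div]
    rw [Finset.sum_comm]
    exact Finset.sum_congr rfl fun i _ => Finset.sum_congr rfl fun j _ => by ring
  refine hb x (funext fun k => ?_)
  have h3 : (F.coord x k : ℂ) = (b k : ℂ) := by
    rw [IntFrame.coord, bf_comm B hB, hlin]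
    rw [Finset.sum_eq_single k]
    · have : F.coord (F.e k) k = F.d k := (qn_eq_bf B _).symm
      rw [this]
      have hne : (F.d k : ℂ) ≠ 0 := Int.cast_ne_zero.2 (F.d_ne k)
      field_simp
    · intro i _ hi
      have : F.coord (F.e k) i = 0 := F.orth k i hi.symm
      simp [this]
    · simp
  exact_mod_cast h3

lemma pairing_orthogonality (hB : B.IsSymm) (hdet : B.det = 1) (F : IntFrame B)
    (b : Fin n → ℤ) :
    (∑ z : F.Quot', pairing F b (F.rep z)) =
      (Set.range F.coord).indicator (fun _ => (Fintype.card F.Quot' : ℂ)) b := by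
  classical
  by_cases hb : b ∈ Set.range F.coord
  · rw [Set.indicator_of_mem hb]
    obtain ⟨x, rfl⟩ := hb
    have h1 : ∀ y, pairing F (F.coord x) y = 1 := by
      intro y
      rw [pairing, ← F.bf_eq hB, mul_comm, Complex.exp_int_mul_two_pi_mul_I]
    simp [h1]
  · rw [Set.indicator_of_notMem hb]
    obtain ⟨y₀, hy₀⟩ := exists_pairing_ne_one hB hdet F b fun x hx => hb ⟨x, hx⟩
    let z₀ : F.Quot' := ⟨F.reduce y₀, y₀, rfl⟩
    have hmul : ∀ z, pairing F b (F.rep (z + z₀)) = pairing F b (F.rep z) * pairing F b y₀ := by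
      intro z
      rw [← pairing_add]
      apply pairing_congr
      rw [map_add, F.reduce_rep, F.reduce_rep]
      rfl
    have hS : (∑ z : F.Quot', pairing F b (F.rep z)) * pairing F b y₀ =
        ∑ z : F.Quot', pairing F b (F.rep z) := by
      rw [Finset.sum_mul]
      conv_rhs => rw [← Equiv.sum_comp (Equiv.addRight z₀) (fun z => pairing F b (F.rep z))]
      exact Finset.sum_congr rfl fun z _ => (hmul z).symm
    by_contra hne
    exact hy₀ ((mul_eq_left₀ hne).1 hS)

lemma frameTerm_pairing (F : IntFrame B) (τ : ℂ) (y b : Fin n → ℤ) :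
    frameTerm F τ (fun i => (F.coord y i : ℂ) / F.d i) b =
      pairing F b y * frameTerm F τ 0 b := by
  simp only [frameTerm, pairing, jacobiTheta₂_term, Finset.mul_sum, Complex.exp_sum,
    ← Finset.prod_mul_distrib, ← Complex.exp_add]
  refine Finset.prod_congr rfl fun i _ => ?_
  congr 1
  simp
  ring

/-- Summation over the lattice as an average over the frame lattice. -/
lemma card_mul_theta (hB : B.IsSymm) (hdet : B.det = 1) (F : IntFrame B) {τ : ℂ}
    (hτ : 0 < τ.im) :
    (Fintype.card F.Quot' : ℂ) * theta B τ =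
      ∑ z : F.Quot', ∏ i, jacobiTheta₂ ((F.coord (F.rep z) i : ℂ) / F.d i) (τ / F.d i) := by
  rw [Finset.sum_congr rfl fun z _ =>
    ((frameTerm_sum F hτ fun i => (F.coord (F.rep z) i : ℂ) / F.d i).2).symm]
  rw [← Summable.tsum_finsetSum fun z _ => (frameTerm_sum F hτ _).1.of_norm]
  have h1 : ∀ b, (∑ z : F.Quot',
      frameTerm F τ (fun i => (F.coord (F.rep z) i : ℂ) / F.d i) b) =
      (Set.range F.coord).indicator
        (fun b => (Fintype.card F.Quot' : ℂ) * frameTerm F τ 0 b) b := by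
    intro b
    simp only [frameTerm_pairing, ← Finset.sum_mul, pairing_orthogonality hB hdet]
    exact (Set.indicator_mul_left _ _ _).symm
  simp only [h1]
  rw [← tsum_subtype, tsum_range (fun b => (Fintype.card F.Quot' : ℂ) * frameTerm F τ 0 b)
    F.coord_injective, theta, ← tsum_mul_left]
  simp only [frameTerm_coord hB F]

lemma gauss_flip {d : ℤ} (hd : 0 < d) (c : ℤ) {τ : ℂ} (hτ : 0 < τ.im) :
    jacobiTheta₂ ((c : ℂ) / d) (τ / d) =
      (((d : ℝ) : ℂ) ^ (1 / 2 : ℂ) / (-I * τ) ^ (1 / 2 : ℂ)) *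
        ∑' m : ℤ, Complex.exp (π * I * (-1 / τ) * (((c - m * d : ℤ) : ℂ) ^ 2 / d)) := by
  have hτ0 : τ ≠ 0 := fun h => by simp [h] at hτ
  have hdC : (d : ℂ) ≠ 0 := Int.cast_ne_zero.2 hd.ne'
  have hdR : (0 : ℝ) < (d : ℝ) := Int.cast_pos.2 hd
  rw [jacobiTheta₂_functional_equation]
  have hsplit : (-I * (τ / d)) ^ (1 / 2 : ℂ) =
      (-I * τ) ^ (1 / 2 : ℂ) / ((d : ℝ) : ℂ) ^ (1 / 2 : ℂ) := by
    have hne : -I * τ ≠ 0 := by simp [hτ0]
    have heq : -I * (τ / d) = (((d : ℝ)⁻¹ : ℝ) : ℂ) * (-I * τ) := by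
      push_cast
      ring
    have hne' : (((d : ℝ)⁻¹ : ℝ) : ℂ) * (-I * τ) ≠ 0 :=
      mul_ne_zero (Complex.ofReal_ne_zero.2 (inv_ne_zero hdR.ne')) hne
    rw [heq, Complex.cpow_def_of_ne_zero hne', Complex.cpow_def_of_ne_zero hne,
      Complex.cpow_def_of_ne_zero (Complex.ofReal_ne_zero.2 hdR.ne'),
      Complex.log_ofReal_mul (inv_pos.2 hdR) hne, ← Complex.exp_sub, Real.log_inv,
      Complex.ofReal_neg, Complex.ofReal_log hdR.le]
    congr 1
    ring
  rw [hsplit, one_div_div, mul_assoc]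
  congr 1
  rw [jacobiTheta₂, ← tsum_mul_left]
  refine tsum_congr fun m => ?_
  rw [jacobiTheta₂_term, ← Complex.exp_add]
  congr 1
  push_cast
  field_simp
  ring

lemma im_neg_inv {τ : ℂ} (hτ : 0 < τ.im) : 0 < (-1 / τ).im := by
  have hτ0 : τ ≠ 0 := fun h => by simp [h] at hτ
  rw [neg_div, one_div, Complex.neg_im, Complex.inv_im, neg_div, neg_neg]
  exact div_pos hτ (Complex.normSq_pos.2 hτ0)

lemma summable_flip {d : ℤ} (hd : 0 < d) (c : ℤ) {τ : ℂ} (hτ : 0 < τ.im) :
    Summable fun m : ℤ =>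
      ‖Complex.exp (π * I * (-1 / τ) * (((c - m * d : ℤ) : ℂ) ^ 2 / d))‖ := by
  have him : 0 < ((-1 / τ) / (d : ℂ)).im := by
    rw [show ((d : ℂ)) = ((d : ℝ) : ℂ) by norm_cast, Complex.div_ofReal_im]
    exact div_pos (im_neg_inv hτ) (Int.cast_pos.2 hd)
  have hinj : Function.Injective fun m : ℤ => c - m * d := fun m m' h =>
    mul_right_cancel₀ hd.ne' (sub_right_inj.1 h)
  refine ((summable_norm_gauss 0 him).comp_injective hinj).congr fun m => ?_
  simp only [Function.comp_apply, jacobiTheta₂_term]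
  congr 2
  push_cast
  ring

/-- The transformation law, up to a constant. -/
lemma theta_flip (hB : B.IsSymm) (hdet : B.det = 1) (F : IntFrame B) {τ : ℂ} (hτ : 0 < τ.im) :
    (Fintype.card F.Quot' : ℂ) * theta B τ =
      (∏ i, ((F.d i : ℝ) : ℂ) ^ (1 / 2 : ℂ)) / ((-I * τ) ^ (1 / 2 : ℂ)) ^ n *
        theta B (-1 / τ) := by
  rw [card_mul_theta hB hdet F hτ]
  simp only [gauss_flip (F.d_pos _) _ hτ, Finset.prod_mul_distrib, Finset.prod_div_distrib,
    Finset.prod_const, Finset.card_univ, Fintype.card_fin, ← Finset.mul_sum]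
  congr 1
  have hpos : ∀ x : Fin n → ℤ, x ≠ 0 → 0 < qn B x := by
    intro x hx
    have h0 : F.coord x ≠ 0 := fun h => hx (F.inj x fun i => congrFun h i)
    obtain ⟨k, hk⟩ := Function.ne_iff.1 h0
    have hD : 0 < ∏ j, F.d j := Finset.prod_pos fun j _ => F.d_pos j
    have hq := F.bf_prod x x
    rw [← qn_eq_bf] at hq
    have hsum : 0 < ∑ j, F.cof j * F.coord x j * bf B (F.e j) x := by
      simp only [bf_comm B hB (F.e _) x, mul_assoc]
      refine Finset.sum_pos' (fun j _ => mul_nonneg ?_ (mul_self_nonneg _)) ⟨k, Finset.mem_univ k, ?_⟩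
      · exact (Finset.prod_pos fun j _ => F.d_pos j).le
      · exact mul_pos (Finset.prod_pos fun j _ => F.d_pos j) (mul_self_pos.2 hk)
    rw [← hq] at hsum
    exact (mul_pos_iff_of_pos_left hD).1 hsum
  have hs := (summable_thetaTerm hB hpos (im_neg_inv hτ)).of_norm
  have hs2 : Summable fun p => thetaTerm B (F.decomp p) (-1 / τ) := F.decomp.summable_iff.2 hs
  rw [theta, ← F.decomp.tsum_eq, hs2.tsum_prod, tsum_fintype]
  refine Finset.sum_congr rfl fun z _ => ?_
  rw [← (hasSum_pi_prod _ fun i => summable_flip (F.d_pos i) _ hτ).2]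
  refine tsum_congr fun m => ?_
  rw [thetaTerm, F.qn_eq hB, Finset.mul_sum, Complex.exp_sum]
  simp only [F.coord_decomp]

end Theta

section RankTwentyFour

variable {B : Matrix (Fin 24) (Fin 24) ℤ}

lemma cpow_half_pow {z : ℂ} (hz : z ≠ 0) : (z ^ (1 / 2 : ℂ)) ^ 24 = z ^ 12 := by
  rw [Complex.cpow_def_of_ne_zero hz, ← Complex.exp_nat_mul,
    show ((24 : ℕ) : ℂ) * (Complex.log z * (1 / 2)) = ((12 : ℕ) : ℂ) * Complex.log z by
      push_cast; ring,
    Complex.exp_nat_mul, Complex.exp_log hz]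

lemma neg_I_mul_pow (τ : ℂ) : (-I * τ) ^ 12 = τ ^ 12 := by
  rw [mul_pow, Even.neg_pow (by decide), show (12 : ℕ) = 4 * 3 by norm_num, pow_mul, I_pow_four]
  simp

lemma theta_S (hB : B.IsSymm) (hpos : ∀ x : Fin 24 → ℤ, x ≠ 0 → 0 < qn B x)
    (hdet : B.det = 1) {τ : ℂ} (hτ : 0 < τ.im) : theta B (-1 / τ) = τ ^ 12 * theta B τ := by
  obtain ⟨F⟩ := exists_intFrame hB hpos
  have hflip : ∀ {σ : ℂ}, 0 < σ.im → (Fintype.card F.Quot' : ℂ) * σ ^ 12 * theta B σ =
      (∏ i, ((F.d i : ℝ) : ℂ) ^ (1 / 2 : ℂ)) * theta B (-1 / σ) := by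
    intro σ hσ
    have hσ0 : σ ≠ 0 := fun h => by simp [h] at hσ
    have := theta_flip hB hdet F hσ
    rw [cpow_half_pow (by simp [hσ0]), neg_I_mul_pow] at this
    rw [mul_right_comm, this]
    field_simp
  set N : ℕ := Fintype.card F.Quot' with hN
  set P : ℝ := ∏ i, Real.sqrt (F.d i) with hP
  have hPC : (∏ i, ((F.d i : ℝ) : ℂ) ^ (1 / 2 : ℂ)) = (P : ℂ) := by
    rw [hP, Complex.ofReal_prod]
    refine Finset.prod_congr rfl fun i _ => ?_
    rw [Real.sqrt_eq_rpow, Complex.ofReal_cpow (Int.cast_nonneg (F.d_pos i).le)]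
    norm_num
  simp only [hPC] at hflip
  -- evaluate at the fixed point `I`
  have hI : theta B I ≠ 0 := by
    have hreal : theta B I = ((∑' x, Real.exp (-π * qn B x) : ℝ) : ℂ) := by
      rw [theta, Complex.ofReal_tsum]
      refine tsum_congr fun x => ?_
      rw [thetaTerm, Complex.ofReal_exp]
      congr 1
      push_cast
      rw [mul_assoc (π : ℂ) I I, I_mul_I]
      ring
    rw [hreal, Complex.ofReal_ne_zero]
    have hs : Summable fun x => Real.exp (-π * qn B x) :=
      (summable_thetaTerm hB hpos (τ := I) (by simp)).congr fun x => by simp [norm_thetaTerm]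
    exact (hs.tsum_pos (fun x => (Real.exp_pos _).le) 0 (Real.exp_pos _)).ne'
  have h1 := hflip (σ := I) (by simp)
  rw [show (-1 : ℂ) / I = I by rw [div_I]; simp, show I ^ 12 = 1 by
    rw [show (12 : ℕ) = 4 * 3 by norm_num, pow_mul, I_pow_four, one_pow], mul_one] at h1
  have hNP : (N : ℂ) = (P : ℂ) := mul_right_cancel₀ hI h1
  have hN0 : (N : ℂ) ≠ 0 := Nat.cast_ne_zero.2 Fintype.card_ne_zero
  have h2 := hflip hτ
  rw [← hNP, mul_assoc] at h2
  exact (mul_left_cancel₀ hN0 h2).symm

lemma theta_T (heven : ∀ x : Fin 24 → ℤ, (2 : ℤ) ∣ qn B x) (τ : ℂ) :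
    theta B (τ + 1) = theta B τ := by
  refine tsum_congr fun x => ?_
  obtain ⟨k, hk⟩ := heven x
  rw [thetaTerm, thetaTerm, hk, Complex.exp_eq_exp_iff_exists_int]
  exact ⟨k, by push_cast; ring⟩

lemma differentiableOn_theta (hB : B.IsSymm) (hpos : ∀ x : Fin 24 → ℤ, x ≠ 0 → 0 < qn B x) :
    DifferentiableOn ℂ (theta B) upperHalfPlaneSet := by
  intro z hz
  have hz' : 0 < z.im := hz
  have hU : IsOpen {w : ℂ | z.im / 2 < w.im} :=
    isOpen_lt continuous_const Complex.continuous_im
  have hsum := summable_thetaTerm hB hpos (τ := (z.im / 2 : ℝ) * I) (by simp; linarith)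
  have hd : DifferentiableOn ℂ (theta B) {w : ℂ | z.im / 2 < w.im} := by
    refine differentiableOn_tsum_of_summable_norm hsum (fun x => ?_) hU fun x w hw => ?_
    · unfold thetaTerm
      fun_prop
    · rw [norm_thetaTerm, norm_thetaTerm, Real.exp_le_exp]
      have hq : (0 : ℝ) ≤ (qn B x : ℝ) := by
        rcases eq_or_ne x 0 with rfl | hx
        · simp
        · exact Int.cast_nonneg (hpos x hx).le
      have hw' : z.im / 2 ≤ w.im := le_of_lt hw
      simp only [Complex.mul_im, Complex.ofReal_re, Complex.ofReal_im, Complex.I_re, Complex.I_im, mul_one,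
        mul_zero, add_zero]
      nlinarith [mul_le_mul_of_nonneg_right hw' hq, Real.pi_pos]
  exact ((hd z (show z.im / 2 < z.im by linarith)).differentiableAt
    (hU.mem_nhds (show z.im / 2 < z.im by linarith))).differentiableWithinAt

/-- Number of vectors of norm `2 m`. -/
noncomputable def repNum (B : Matrix (Fin 24) (Fin 24) ℤ) (m : ℕ) : ℕ :=
  {x : Fin 24 → ℤ | qn B x = 2 * (m : ℤ)}.ncard

lemma finite_norm_eq (hB : B.IsSymm) (hpos : ∀ x : Fin 24 → ℤ, x ≠ 0 → 0 < qn B x) (k : ℤ) :
    {x : Fin 24 → ℤ | qn B x = k}.Finite := by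
  have hs := summable_thetaTerm hB hpos (τ := I) (by simp)
  have h := hs.tendsto_cofinite_zero.eventually (gt_mem_nhds (Real.exp_pos (-π * (k : ℝ))))
  rw [Filter.eventually_cofinite] at h
  refine h.subset fun x hx => ?_
  simp only [Set.mem_setOf_eq] at hx ⊢
  rw [norm_thetaTerm, hx]
  simp

lemma hasSum_theta (hB : B.IsSymm) (hpos : ∀ x : Fin 24 → ℤ, x ≠ 0 → 0 < qn B x)
    (heven : ∀ x : Fin 24 → ℤ, (2 : ℤ) ∣ qn B x) (τ : ℍ) :
    HasSum (fun m : ℕ => (repNum B m : ℂ) • Function.Periodic.qParam 1 τ ^ m)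
      (theta B τ) := by
  let g : (Fin 24 → ℤ) → ℕ := fun x => (qn B x / 2).toNat
  have hg : ∀ x, qn B x = 2 * (g x : ℤ) := by
    intro x
    obtain ⟨k, hk⟩ := heven x
    have hk0 : 0 ≤ k := by
      rcases eq_or_ne x 0 with rfl | hx
      · simp at hk; omega
      · have := hpos x hx; omega
    simp only [g, hk]
    rw [Int.mul_ediv_cancel_left _ (by norm_num), Int.toNat_of_nonneg hk0]
  have hs := (summable_thetaTerm hB hpos (τ := (τ : ℂ)) τ.im_pos).of_norm.hasSum
  rw [← (Equiv.sigmaFiberEquiv g).hasSum_iff] at hs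
  refine hs.sigma fun m => ?_
  have hfin : Finite {x // g x = m} := by
    refine Set.finite_coe_iff.2 ((finite_norm_eq hB hpos (2 * (m : ℤ))).subset fun x hx => ?_)
    simp only [Set.mem_setOf_eq, hg x]
    rw [show g x = m from hx]
  have : Fintype {x // g x = m} := Fintype.ofFinite _
  have hcard : Fintype.card {x // g x = m} = repNum B m := by
    rw [← Nat.card_eq_fintype_card, repNum, ← Nat.card_coe_set_eq]
    refine Nat.card_congr (Equiv.subtypeEquivRight fun x => ?_)
    simp [hg x]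
  have key : ∀ x : {x // g x = m}, thetaTerm B x.1 τ = Function.Periodic.qParam 1 τ ^ m := by
    intro x
    simp only [thetaTerm, hg x.1, x.2, Function.Periodic.qParam, ← Complex.exp_nat_mul]
    congr 1
    push_cast
    ring
  have h := hasSum_fintype fun x : {x // g x = m} => thetaTerm B x.1 τ
  simp only [key, Finset.sum_const, Finset.card_univ, hcard, nsmul_eq_mul] at h
  simpa [Function.comp_def, key] using h

set_option backward.isDefEq.respectTransparency.types false in
/-- The theta series as a modular form. -/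
noncomputable def thetaForm (hB : B.IsSymm) (hpos : ∀ x : Fin 24 → ℤ, x ≠ 0 → 0 < qn B x)
    (heven : ∀ x : Fin 24 → ℤ, (2 : ℤ) ∣ qn B x) (hdet : B.det = 1) :
    ModularForm 𝒮ℒ 12 :=
  have hS : (fun τ : ℍ => theta B τ) ∣[(12 : ℤ)] ModularGroup.S = fun τ : ℍ => theta B τ := by
    ext z
    rw [ModularForm.SL_slash_apply, UpperHalfPlane.modular_S_smul]
    suffices theta B (-(z : ℂ))⁻¹ * ((z : ℂ) ^ 12)⁻¹ = theta B z by
      simpa [denom, ModularGroup.S] using this
    rw [inv_neg, ← one_div, ← neg_div, theta_S hB hpos hdet z.im_pos]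
    field_simp [z.ne_zero]
  have hT : (fun τ : ℍ => theta B τ) ∣[(12 : ℤ)] ModularGroup.T = fun τ : ℍ => theta B τ := by
    ext z
    rw [ModularForm.SL_slash_apply, denom, UpperHalfPlane.modular_T_smul]
    simp [ModularGroup.T, add_comm (1 : ℂ), theta_T heven]
  { toFun := fun τ => theta B τ
    slash_action_eq' := fun A hA => by
      obtain ⟨A, rfl⟩ := hA
      exact SlashInvariantForm.slash_action_generators_SL2Z hS hT A
    holo' := by
      rw [UpperHalfPlane.mdifferentiable_iff]
      refine (differentiableOn_theta hB hpos).congr fun z hz => ?_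
      simp [ofComplex_apply_of_im_pos hz]
    bdd_at_cusps' := fun {c} hc => by
      rw [Subgroup.IsArithmetic.isCusp_iff_isCusp_SL2Z] at hc
      rw [OnePoint.isBoundedAt_iff_forall_SL2Z hc]
      intro γ _
      rw [SlashInvariantForm.slash_action_generators_SL2Z hS hT]
      exact isBoundedAtImInfty_of_hasSum_qExpansion one_pos (hasSum_theta hB hpos heven) }

open ModularForm EisensteinSeries in
/-- The representation numbers up to norm 8 of a rootless even unimodular lattice of rank 24. -/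
theorem repNum_eq (hR : Rootless B) (hdet : B.det = 1) :
    repNum B 2 = 196560 ∧ repNum B 3 = 16773120 ∧ repNum B 4 = 398034000 := by
  set f := thetaForm hR.symm hR.pos hR.even hdet with hf
  have hcoef : ∀ m, (repNum B m : ℂ) = (qExpansion 1 f).coeff m :=
    ModularFormClass.qExpansion_coeff_unique one_pos one_mem_strictPeriods_SL
      (hasSum_theta hR.symm hR.pos hR.even)
  have h0 : repNum B 0 = 1 := by
    rw [repNum, Set.ncard_eq_one]
    refine ⟨0, Set.eq_singleton_iff_unique_mem.2 ⟨by simp, fun x hx => ?_⟩⟩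
    by_contra hne
    have := hR.pos x hne
    simp at hx
    omega
  have h1 : repNum B 1 = 0 := by
    rw [repNum, Set.eq_empty_of_forall_notMem (s := {x | qn B x = 2 * ((1 : ℕ) : ℤ)}) fun x hx =>
      hR.ne_two x (by simpa using hx)]
    simp
  let A : ModularForm 𝒮ℒ 12 := ModularForm.mcast (by decide) (E₄.pow 3)
  let C : ModularForm 𝒮ℒ 12 := ModularForm.mcast (by decide) (E₆.pow 2)
  let g : ModularForm 𝒮ℒ 12 := f - (7 / 12 : ℂ) • A - (5 / 12 : ℂ) • C
  have hq : qExpansion 1 g = qExpansion 1 f -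
      (7 / 12 : ℂ) • (qExpansion 1 E₄) ^ 3 - (5 / 12 : ℂ) • (qExpansion 1 E₆) ^ 2 := by
    rw [show ⇑g = ⇑(f - (7 / 12 : ℂ) • A) - ⇑((5 / 12 : ℂ) • C) from rfl,
      ModularForm.qExpansion_sub one_pos one_mem_strictPeriods_SL,
      show ⇑(f - (7 / 12 : ℂ) • A) = ⇑f - ⇑((7 / 12 : ℂ) • A) from rfl,
      ModularForm.qExpansion_sub one_pos one_mem_strictPeriods_SL,
      show ⇑((7 / 12 : ℂ) • A) = (7 / 12 : ℂ) • ⇑A from rfl,
      show ⇑((5 / 12 : ℂ) • C) = (5 / 12 : ℂ) • ⇑C from rfl,
      ModularForm.qExpansion_smul one_pos one_mem_strictPeriods_SL,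
      ModularForm.qExpansion_smul one_pos one_mem_strictPeriods_SL]
    simp only [A, C, coe_mcast, ModularForm.qExpansion_pow one_pos one_mem_strictPeriods_SL]
  have e4 : ∀ m, (qExpansion 1 E₄).coeff m =
      if m = 0 then 1 else (240 : ℂ) * (ArithmeticFunction.sigma 3 m : ℂ) := by
    intro m
    rw [E_qExpansion_coeff _ ⟨2, rfl⟩, show bernoulli 4 = -1 / 30 by decide +kernel]
    split_ifs <;> norm_num
  have e6 : ∀ m, (qExpansion 1 E₆).coeff m =
      if m = 0 then 1 else (-504 : ℂ) * (ArithmeticFunction.sigma 5 m : ℂ) := by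
    intro m
    rw [E_qExpansion_coeff _ ⟨3, rfl⟩, show bernoulli 6 = 1 / 42 by decide +kernel]
    split_ifs <;> norm_num
  have s31 : ArithmeticFunction.sigma 3 1 = 1 := by decide +kernel
  have s32 : ArithmeticFunction.sigma 3 2 = 9 := by decide +kernel
  have s33 : ArithmeticFunction.sigma 3 3 = 28 := by decide +kernel
  have s34 : ArithmeticFunction.sigma 3 4 = 73 := by decide +kernel
  have s51 : ArithmeticFunction.sigma 5 1 = 1 := by decide +kernel
  have s52 : ArithmeticFunction.sigma 5 2 = 33 := by decide +kernel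
  have s53 : ArithmeticFunction.sigma 5 3 = 244 := by decide +kernel
  have s54 : ArithmeticFunction.sigma 5 4 = 1057 := by decide +kernel
  have hg : g = 0 := by
    refine sturm_bound_levelOne_nat (k := 12) ?_
    refine lt_of_lt_of_le (b := ((2 : ℕ) : ℕ∞)) (by norm_num) ?_
    refine PowerSeries.nat_le_order _ _ fun i hi => ?_
    interval_cases i <;>
      simp [hq, ← hcoef, h0, h1, PowerSeries.coeff_mul, pow_succ,
        Finset.Nat.antidiagonal_succ, e4, e6, s31, s51,
        -PowerSeries.coeff_zero_eq_constantCoeff] <;> norm_num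
  have hzero : ∀ m, (qExpansion 1 g).coeff m = 0 := by
    intro m
    rw [hg]
    simp [UpperHalfPlane.qExpansion_zero]
  refine ⟨?_, ?_, ?_⟩
  · have h := hzero 2
    simp [hq, ← hcoef, PowerSeries.coeff_mul, pow_succ, Finset.Nat.antidiagonal_succ, e4, e6,
      s31, s32, s51, s52, -PowerSeries.coeff_zero_eq_constantCoeff] at h
    norm_num at h
    rw [sub_eq_zero, sub_eq_iff_eq_add] at h
    norm_num at h
    exact_mod_cast h
  · have h := hzero 3
    simp [hq, ← hcoef, PowerSeries.coeff_mul, pow_succ, Finset.Nat.antidiagonal_succ, e4, e6,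
      s31, s32, s33, s51, s52, s53, -PowerSeries.coeff_zero_eq_constantCoeff] at h
    norm_num at h
    rw [sub_eq_zero, sub_eq_iff_eq_add] at h
    norm_num at h
    exact_mod_cast h
  · have h := hzero 4
    simp [hq, ← hcoef, PowerSeries.coeff_mul, pow_succ, Finset.Nat.antidiagonal_succ, e4, e6,
      s31, s32, s33, s34, s51, s52, s53, s54, -PowerSeries.coeff_zero_eq_constantCoeff] at h
    norm_num at h
    rw [sub_eq_zero, sub_eq_iff_eq_add] at h
    norm_num at h
    exact_mod_cast h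

end RankTwentyFour

end CfsgLib.EvenLattice
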